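import Cfsg.Agent.SporJ2.Iso
import Cfsg.Agent.SporJ2.CoverData
import Cfsg.Agent.Schur.ThreeGroups
import Cfsg.Agent.Schur.OddSwap
import Cfsg.Agent.SchurMult.Cover

/-!
The double cover of `J2` as a group of signed permutations of 100 points, and the Schur multiplier
of `J2`.
-/

set_option autoImplicit false
set_option maxRecDepth 100000
set_option synthInstance.maxSize 512

noncomputable section

namespace CfsgLib.SporJ2.Cover

open CfsgLib.CosetEnum
open scoped commutatorElement

attribute [local irreducible] letters eltWords eltCodes cert twoWords threeWords fiveWords threeNext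
  fiveNext

/-- A letter as a function. -/
def letterFun (x i : ℕ) : ℕ := img (letters.getD x 0) i

/-- A chosen element as a function. -/
def eltFun (k i : ℕ) : ℕ := if k < 16 then img (eltCodes.getD k 0) i else i

/-- The value of a product. -/
def runF (f : ℕ → ℕ → ℕ) : List ℕ → ℕ → ℕ
  | [], i => i
  | x :: w, i => f x (runF f w i)

/-- A table of a permutation of 200 points. -/
def tableOK (f : ℕ → ℕ) : Bool :=
  decide ((List.range 200).map f).Nodup && (List.range 200).all fun i => decide (f i < 200)

theorem letters_ok : (List.range 6).all (fun x => tableOK (letterFun x)) = true := by decide +kernel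

theorem letter_lt {x : ℕ} (hx : x < 6) (i : Fin 200) : letterFun x i < 200 := by
  have h := List.all_eq_true.1 letters_ok x (List.mem_range.2 hx)
  simp only [tableOK, Bool.and_eq_true, List.all_eq_true, List.mem_range, decide_eq_true_eq] at h
  exact h.2 i i.2

theorem letter_inj {x : ℕ} (hx : x < 6) :
    Function.Injective fun i : Fin 200 => (⟨letterFun x i, letter_lt hx i⟩ : Fin 200) := by
  intro i j hij
  have h := List.all_eq_true.1 letters_ok x (List.mem_range.2 hx)
  simp only [tableOK, Bool.and_eq_true, decide_eq_true_eq] at h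
  exact Fin.ext (List.inj_on_of_nodup_map h.1 (List.mem_range.2 i.2) (List.mem_range.2 j.2)
    (congrArg Fin.val hij))

/-- A letter as a permutation. -/
def letterPerm (x : ℕ) : Equiv.Perm (Fin 200) :=
  if hx : x < 6 then Equiv.ofBijective _ (Finite.injective_iff_bijective.1 (letter_inj hx)) else 1

theorem letterPerm_apply {x : ℕ} (hx : x < 6) (i : Fin 200) :
    ((letterPerm x i : Fin 200) : ℕ) = letterFun x i := by
  rw [letterPerm, dif_pos hx]; rfl

/-- The double cover. -/
def Gam : Subgroup (Equiv.Perm (Fin 200)) := Subgroup.closure {a | ∃ x < 6, letterPerm x = a}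

theorem letterPerm_mem (x : ℕ) : letterPerm x ∈ Gam := by
  by_cases hx : x < 6
  · exact Subgroup.subset_closure ⟨x, hx, rfl⟩
  · rw [letterPerm, dif_neg hx]; exact one_mem _

/-- A letter in the cover. -/
def letterG (x : ℕ) : Gam := ⟨letterPerm x, letterPerm_mem x⟩

theorem coe_gword (g : ℕ → Gam) (w : List ℕ) :
    ((gword g w : Gam) : Equiv.Perm (Fin 200)) = gword (fun x => (g x : Equiv.Perm (Fin 200))) w :=
  gword_map Gam.subtype g w

theorem gword_runF {g : ℕ → Gam} {f : ℕ → ℕ → ℕ} {L : ℕ}
    (hg : ∀ x < L, ∀ i : Fin 200, (((g x : Equiv.Perm (Fin 200)) i : Fin 200) : ℕ) = f x i)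
    {w : List ℕ} (hw : w.all (fun x => decide (x < L)) = true) (i : Fin 200) :
    ((((gword g w : Gam) : Equiv.Perm (Fin 200)) i : Fin 200) : ℕ) = runF f w i := by
  induction w with
  | nil => rfl
  | cons x w ih =>
    simp only [List.all_cons, Bool.and_eq_true, decide_eq_true_eq] at hw
    rw [gword_cons, Subgroup.coe_mul, Equiv.Perm.mul_apply, hg x hw.1, runF, ih hw.2]

theorem letterG_apply (x : ℕ) (hx : x < 6) (i : Fin 200) :
    (((letterG x : Equiv.Perm (Fin 200)) i : Fin 200) : ℕ) = letterFun x i := letterPerm_apply hx i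

/-- A chosen element. -/
def eltG (k : ℕ) : Gam := gword letterG (eltWords.getD k [])

/-- The checks on the chosen elements. -/
def eltOK : Bool :=
  eltWords.length == 16 && (List.range 16).all fun k =>
    (eltWords.getD k []).all (fun x => decide (x < 6)) &&
      (List.range 200).all fun i => runF letterFun (eltWords.getD k []) i == eltFun k i

theorem eltOK_true : eltOK = true := by decide +kernel

theorem eltG_apply (k : ℕ) (i : Fin 200) :
    (((eltG k : Equiv.Perm (Fin 200)) i : Fin 200) : ℕ) = eltFun k i := by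
  have h := eltOK_true
  simp only [eltOK, Bool.and_eq_true, beq_iff_eq, List.all_eq_true, List.mem_range] at h
  obtain ⟨hlen, hall⟩ := h
  rcases lt_or_ge k 16 with hk | hk
  · rw [eltG, gword_runF letterG_apply (List.all_eq_true.2 (hall k hk).1), (hall k hk).2 i i.2]
  · rw [eltG, List.getD_eq_default _ _ (by rw [hlen]; exact hk), gword_nil, eltFun,
      if_neg (by omega)]
    rfl

theorem elt_eq {u w : List ℕ}
    (h : (List.range 200).all (fun i => runF eltFun u i == runF eltFun w i) = true) :
    gword eltG u = gword eltG w := by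
  simp only [List.all_eq_true, List.mem_range, beq_iff_eq] at h
  have hb : ∀ v : List ℕ, v.all (fun x => decide (x < v.sum + 1)) = true := fun v =>
    List.all_eq_true.2 fun x hx =>
      decide_eq_true (Nat.lt_succ_of_le (List.le_sum_of_mem hx))
  refine Subtype.ext (Equiv.ext fun i => Fin.ext ?_)
  rw [gword_runF (fun x _ => eltG_apply x) (hb u), gword_runF (fun x _ => eltG_apply x) (hb w)]
  exact h i i.2

/-- The central involution. -/
def zC : Gam := letterG 5

theorem zC_sq : zC ^ 2 = 1 := by
  have key : ∀ i < 200, letterFun 5 (letterFun 5 i) = i := by decide +kernel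
  refine Subtype.ext (Equiv.ext fun i => Fin.ext ?_)
  rw [pow_two, Subgroup.coe_mul, Equiv.Perm.mul_apply, zC, letterG_apply 5 (by norm_num),
    letterG_apply 5 (by norm_num)]
  exact key i i.2

theorem zC_ne : zC ≠ 1 := by
  intro h
  have key : letterFun 5 0 ≠ 0 := by decide +kernel
  refine key ?_
  rw [← show ((0 : Fin 200) : ℕ) = 0 from rfl, ← letterG_apply 5 (by norm_num), ← zC, h]
  rfl

theorem zC_central : zC ∈ Subgroup.center Gam := by
  have key : ∀ x < 6, ∀ i < 200, letterFun x (letterFun 5 i) = letterFun 5 (letterFun x i) := by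
    decide +kernel
  refine Subgroup.mem_center_iff.2 fun g => Subtype.ext ?_
  have hle : Gam ≤ Subgroup.centralizer {letterPerm 5} := by
    rw [Gam, Subgroup.closure_le]
    rintro _ ⟨x, hx, rfl⟩
    refine Subgroup.mem_centralizer_singleton_iff.2 (Equiv.ext fun i => Fin.ext ?_)
    rw [Equiv.Perm.mul_apply, Equiv.Perm.mul_apply, letterPerm_apply hx,
      letterPerm_apply (x := 5) (by norm_num), letterPerm_apply (x := 5) (by norm_num),
      letterPerm_apply hx, key x hx i i.2]
  exact Subgroup.mem_centralizer_singleton_iff.1 (hle g.2)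

/-- The centre generated by the involution. -/
abbrev Zc : Subgroup Gam := Subgroup.zpowers zC

theorem Zc_le_center : Zc ≤ Subgroup.center Gam := Subgroup.zpowers_le.2 zC_central

instance Zc_normal : Zc.Normal :=
  ⟨fun n hn g => by rw [Subgroup.mem_center_iff.1 (Zc_le_center hn) g, mul_inv_cancel_right]; exact hn⟩

/-- The generators of the quotient. -/
def quo (x : ℕ) : Gam ⧸ Zc := QuotientGroup.mk (letterG x)

/-- The relations hold up to sign. -/
def relsOK : Bool :=
  Hundred.rels.all fun w => w.all (fun x => decide (x < 6)) &&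
    ((List.range 200).all (fun i => runF letterFun w i == i) ||
      (List.range 200).all (fun i => runF letterFun w i == letterFun 5 i))

theorem quo_rels : ∀ w ∈ Hundred.rels, gword quo w = 1 := by
  intro w hw
  have h0 : relsOK = true := by decide +kernel
  have h := List.all_eq_true.1 h0 w hw
  simp only [Bool.and_eq_true, Bool.or_eq_true, List.all_eq_true (l := List.range 200),
    List.mem_range, beq_iff_eq] at h
  show gword (fun x => QuotientGroup.mk' Zc (letterG x)) w = 1
  rw [← gword_map, ← MonoidHom.mem_ker, QuotientGroup.ker_mk']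
  rcases h.2 with h' | h'
  · have e : gword letterG w = 1 := Subtype.ext (Equiv.ext fun i => Fin.ext (by
      rw [gword_runF letterG_apply h.1, h' i i.2]; rfl))
    rw [e]; exact one_mem _
  · have e : gword letterG w = zC := Subtype.ext (Equiv.ext fun i => Fin.ext (by
      rw [gword_runF letterG_apply h.1, h' i i.2, ← letterG_apply 5 (by norm_num) i]; rfl))
    rw [e]; exact Subgroup.mem_zpowers _

theorem seg_quo : Hundred.seg quo 5 = ⊤ := by
  rw [eq_top_iff]
  intro q _
  obtain ⟨g, rfl⟩ := QuotientGroup.mk_surjective q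
  have htop : Subgroup.closure {a : Gam | ∃ x < 6, letterG x = a} = ⊤ := by
    refine Subgroup.map_injective (f := Gam.subtype) Subtype.val_injective ?_
    rw [MonoidHom.map_closure, ← MonoidHom.range_eq_map, Subgroup.range_subtype]
    show _ = Subgroup.closure _
    refine congrArg Subgroup.closure (Set.ext fun a => ?_)
    constructor
    · rintro ⟨_, ⟨x, hx, rfl⟩, rfl⟩; exact ⟨x, hx, rfl⟩
    · rintro ⟨x, hx, rfl⟩; exact ⟨_, ⟨x, hx, rfl⟩, rfl⟩
  have hg : g ∈ Subgroup.closure {a : Gam | ∃ x < 6, letterG x = a} := htop ▸ Subgroup.mem_top g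
  have hle : Subgroup.closure {a : Gam | ∃ x < 6, letterG x = a} ≤
      (Hundred.seg quo 5).comap (QuotientGroup.mk' Zc) := by
    rw [Subgroup.closure_le]
    rintro _ ⟨x, hx, rfl⟩
    rcases Nat.lt_succ_iff_lt_or_eq.1 hx with h5 | rfl
    · exact Subgroup.subset_closure ⟨x, h5, rfl⟩
    · show QuotientGroup.mk' Zc (letterG 5) ∈ Hundred.seg quo 5
      rw [show QuotientGroup.mk' Zc (letterG 5) = 1 from
        (QuotientGroup.eq_one_iff _).2 (Subgroup.mem_zpowers zC)]
      exact one_mem _
  exact hle hg

theorem quo_nontrivial : Nontrivial (Gam ⧸ Zc) := by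
  refine ⟨⟨quo 0, 1, fun h => ?_⟩⟩
  have hmem : letterG 0 ∈ Zc := (QuotientGroup.eq_one_iff _).1 h
  obtain ⟨k, hk⟩ := hmem
  have key : ∃ i < 200, letterFun 0 i ≠ i ∧ letterFun 0 i ≠ letterFun 5 i := by decide +kernel
  obtain ⟨i, hi, h1, h2⟩ := key
  rcases Int.even_or_odd' k with ⟨j, rfl | rfl⟩
  · refine h1 ?_
    have e : letterG 0 = 1 := by
      rw [← hk]
      show zC ^ (2 * j) = 1
      rw [zpow_mul, zpow_two, ← pow_two, zC_sq, one_zpow]
    rw [← letterG_apply 0 (by norm_num) ⟨i, hi⟩, e]
    rfl
  · refine h2 ?_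
    have e : letterG 0 = zC := by
      rw [← hk]
      show zC ^ (2 * j + 1) = zC
      rw [zpow_add_one, zpow_mul, zpow_two, ← pow_two, zC_sq, one_zpow, one_mul]
    rw [← letterG_apply 0 (by norm_num) ⟨i, hi⟩, e, ← letterG_apply 5 (by norm_num) ⟨i, hi⟩]
    rfl

/-- Generators of the fibre product. -/
def pairQ (x : ℕ) : Equiv.Perm (Fin Hundred.D.n) × (Gam ⧸ Zc) := (Hundred.sigma x, quo x)

theorem exists_equiv_quo : Nonempty (Hundred.grp ≃* Gam ⧸ Zc) := by
  have hrel : ∀ w ∈ Hundred.rels, gword pairQ w = 1 := fun w hw => Prod.ext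
    (show MonoidHom.fst _ _ (gword pairQ w) = 1 from
      (gword_map _ _ _).trans (Hundred.sigma_rels w hw))
    (show MonoidHom.snd _ _ (gword pairQ w) = 1 from (gword_map _ _ _).trans (quo_rels w hw))
  obtain ⟨hle, hne⟩ := Hundred.card_seg_le pairQ hrel
  have : Finite (Hundred.seg pairQ 5) := Nat.finite_of_card_ne_zero hne
  let P := Hundred.seg pairQ 5
  have hfst : P.map (MonoidHom.fst _ _) = Hundred.grp := map_seg _ _ _
  have hsnd : P.map (MonoidHom.snd _ _) = ⊤ := (map_seg _ _ _).trans seg_quo
  let f : P →* Hundred.grp :=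
    (MulEquiv.subgroupCongr hfst).toMonoidHom.comp (MonoidHom.subgroupMap (MonoidHom.fst _ _) P)
  have hf : Function.Surjective f :=
    (MulEquiv.subgroupCongr hfst).surjective.comp (MonoidHom.subgroupMap_surjective _ _)
  have hcard : Nat.card P = Nat.card Hundred.grp :=
    le_antisymm (hle.trans_eq Hundred.card_grp.symm) (Nat.card_le_card_of_surjective f hf)
  let e := MulEquiv.ofBijective f ((Nat.bijective_iff_surjective_and_card f).2 ⟨hf, hcard⟩)
  let s : P →* Gam ⧸ Zc := (MonoidHom.snd _ _).comp P.subtype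
  have hs : Function.Surjective s := fun q => by
    obtain ⟨y, hy, hyq⟩ : q ∈ P.map (MonoidHom.snd _ _) := hsnd ▸ Subgroup.mem_top q
    exact ⟨⟨y, hy⟩, hyq⟩
  have := Hundred.simple
  have := quo_nontrivial
  let t : Hundred.grp →* Gam ⧸ Zc := s.comp e.symm.toMonoidHom
  have ht : Function.Surjective t := hs.comp e.symm.surjective
  refine ⟨MulEquiv.ofBijective t ⟨?_, ht⟩⟩
  rw [← MonoidHom.ker_eq_bot_iff]
  refine t.normal_ker.eq_bot_or_eq_top.resolve_right fun htop => ?_
  obtain ⟨a, b, hab⟩ := exists_pair_ne (Gam ⧸ Zc)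
  obtain ⟨a', rfl⟩ := ht a
  obtain ⟨b', rfl⟩ := ht b
  exact hab ((MonoidHom.mem_ker.1 (htop ▸ Subgroup.mem_top a')).trans
    (MonoidHom.mem_ker.1 (htop ▸ Subgroup.mem_top b')).symm)

theorem card_Gam : Nat.card Gam = 1209600 := by
  obtain ⟨e⟩ := exists_equiv_quo
  have h := Subgroup.card_eq_card_quotient_mul_card_subgroup Zc
  rw [← Nat.card_congr e.toEquiv, Hundred.card_grp, Nat.card_zpowers,
    orderOf_eq_prime (p := 2) zC_sq zC_ne] at h
  exact h

theorem exists_stem :
    ∃ σ : Gam →* Cfsg.Spor.J2, Cfsg.IsStemExtension σ ∧ Nat.card σ.ker = 2 := by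
  obtain ⟨e⟩ := exists_equiv_quo
  obtain ⟨d⟩ := exists_equiv_J2
  let σ : Gam →* Cfsg.Spor.J2 := (d.trans e).symm.toMonoidHom.comp (QuotientGroup.mk' Zc)
  have hker : σ.ker = Zc := by
    ext g
    simp only [σ, MonoidHom.mem_ker, MonoidHom.comp_apply, MulEquiv.coe_toMonoidHom,
      EmbeddingLike.map_eq_one_iff]
    exact QuotientGroup.eq_one_iff g
  refine ⟨σ, ⟨(d.trans e).symm.surjective.comp (QuotientGroup.mk'_surjective Zc),
    hker ▸ Zc_le_center, ?_⟩, ?_⟩
  · rw [hker, Subgroup.zpowers_le]
    have h : gword eltG [1, 2] = gword eltG [0, 2, 1] := elt_eq (by decide +kernel)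
    have h0 : eltG 0 = zC := by
      refine Subtype.ext (Equiv.ext fun i => Fin.ext ?_)
      rw [eltG_apply, zC, letterG_apply 5 (by norm_num)]
      have key : ∀ i < 200, eltFun 0 i = letterFun 5 i := by decide +kernel
      exact key i i.2
    simp only [gword, List.map_cons, List.map_nil, List.prod_cons, List.prod_nil, mul_one, h0] at h
    have he : zC = ⁅eltG 1, eltG 2⁆ := by
      rw [commutatorElement_def, h]; group
    rw [he]
    exact Subgroup.commutator_mem_commutator (Subgroup.mem_top _) (Subgroup.mem_top _)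
  · rw [hker, Nat.card_zpowers, orderOf_eq_prime (p := 2) zC_sq zC_ne]

/-- A list of elements separated by their images of base points and closed under the generators. -/
def listClosed (W : List (List ℕ)) (ks : List ℕ) (nxt : List (List ℕ)) (base : List ℕ) : Bool :=
  (W.getD 0 [1] == []) && W.all (fun w => w.all fun k => ks.contains k) &&
    base.all (fun b => decide (b < 200)) &&
    decide ((W.map fun w => base.map fun b => runF eltFun w b).Nodup) &&
    (List.range W.length).all fun i => (List.range ks.length).all fun j =>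
      decide ((nxt.getD i []).getD j 0 < W.length) &&
        (List.range 200).all fun p => runF eltFun (W.getD i [] ++ [ks.getD j 0]) p ==
          runF eltFun (W.getD ((nxt.getD i []).getD j 0) []) p

theorem gword_elt_apply (w : List ℕ) (i : Fin 200) :
    ((((gword eltG w : Gam) : Equiv.Perm (Fin 200)) i : Fin 200) : ℕ) = runF eltFun w i :=
  gword_runF (L := w.sum + 1) (fun x _ => eltG_apply x)
    (List.all_eq_true.2 fun _ hx => decide_eq_true (Nat.lt_succ_of_le (List.le_sum_of_mem hx))) i

theorem card_closure_list {W : List (List ℕ)} {ks : List ℕ} {nxt : List (List ℕ)} {base : List ℕ}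
    (h : listClosed W ks nxt base = true) :
    Nat.card (Subgroup.closure {g : Gam | ∃ k ∈ ks, eltG k = g}) = W.length := by
  simp only [listClosed, Bool.and_eq_true, List.all_eq_true, beq_iff_eq, decide_eq_true_eq,
    List.mem_range, List.contains_eq_mem] at h
  obtain ⟨⟨⟨⟨h0, hmem⟩, hb⟩, hnd⟩, hcl⟩ := h
  set K := Subgroup.closure {g : Gam | ∃ k ∈ ks, eltG k = g}
  have hlen : 0 < W.length := by
    rcases W with _ | ⟨a, l⟩
    · simp at h0
    · simp
  have hin : ∀ w ∈ W, gword eltG w ∈ K := fun w hw =>
    gword_mem K _ fun k hk => Subgroup.subset_closure ⟨k, hmem w hw k hk, rfl⟩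
  let f : Fin W.length → K := fun i => ⟨gword eltG W[i.val], hin _ (List.getElem_mem _)⟩
  have hsurj : Function.Surjective f := by
    intro ⟨g, hg⟩
    suffices hs : ∃ i : Fin W.length, gword eltG W[i.val] = g by
      obtain ⟨i, hi⟩ := hs
      exact ⟨i, Subtype.ext hi⟩
    have hg' : g ∈ (K.toSubmonoid : Submonoid Gam) := hg
    rw [Subgroup.closure_toSubmonoid_of_finite] at hg'
    clear hg
    induction hg' using Submonoid.closure_induction_right with
    | one =>
      refine ⟨⟨0, hlen⟩, ?_⟩
      rw [List.getD_eq_getElem _ _ hlen] at h0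
      rw [h0, gword_nil]
    | mul_right a _ b hb' ih =>
      obtain ⟨k, hk, rfl⟩ := hb'
      obtain ⟨i, rfl⟩ := ih
      obtain ⟨j, hj, rfl⟩ := List.getElem_of_mem hk
      obtain ⟨hlt, heq⟩ := hcl i i.2 j hj
      rw [List.getD_eq_getElem _ _ i.2, List.getD_eq_getElem _ _ hlt,
        List.getD_eq_getElem _ _ hj] at heq
      refine ⟨⟨_, hlt⟩, Subtype.ext (Equiv.ext fun p => Fin.ext ?_)⟩
      rw [gword_elt_apply, ← heq p p.2, ← gword_elt_apply, gword, List.map_append,
        List.prod_append]
      simp [gword]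
  have hinj : Function.Injective f := by
    intro i j hij
    have hpt : ∀ b ∈ base, runF eltFun W[i.val] b = runF eltFun W[j.val] b := fun b hb' => by
      rw [← gword_elt_apply _ ⟨b, hb b hb'⟩, ← gword_elt_apply _ ⟨b, hb b hb'⟩,
        show gword eltG W[i.val] = gword eltG W[j.val] from congrArg Subtype.val hij]
    refine Fin.ext ((List.Nodup.getElem_inj_iff hnd (hi := by simp) (hj := by simp)).1 ?_)
    rw [List.getElem_map, List.getElem_map]
    exact List.map_congr_left hpt
  rw [← Nat.card_eq_of_bijective f ⟨hinj, hsurj⟩, Nat.card_fin]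

theorem two_list_checks : twoWords.all (fun w => w.all fun k => decide (k < cert.n)) = true ∧
    (twoWords.map fun w => twoBase.map fun b => runF eltFun w b).Nodup ∧
    twoWords.length = 256 ∧ (∀ b ∈ twoBase, b < 200) := by decide +kernel

theorem evalW_eq_gword (w : List ℕ) : Schur.TwoCert.evalW eltG w = gword eltG w := rfl

theorem not_two_dvd {Δ : Type} [Group Δ] [Finite Δ] (σ : Δ →* Gam)
    (hσ : Cfsg.IsStemExtension σ) : ¬ 2 ∣ Nat.card σ.ker := by
  have hn : cert.n = 8 := by decide +kernel
  have hok : Schur.TwoCert.ok cert = true := by decide +kernel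
  have hrel : ∀ r < cert.rules.length, Schur.TwoCert.evalW eltG (cert.rules.getD r ([], [])).1 =
      Schur.TwoCert.evalW eltG (cert.rules.getD r ([], [])).2 := by
    have h : (List.range cert.rules.length).all (fun r => (List.range 200).all fun i =>
        runF eltFun (cert.rules.getD r ([], [])).1 i == runF eltFun (cert.rules.getD r ([], [])).2 i)
        = true := by decide +kernel
    intro r hr
    rw [evalW_eq_gword, evalW_eq_gword]
    exact elt_eq (List.all_eq_true.1 h r (List.mem_range.2 hr))
  set H := Subgroup.closure (eltG '' {i | i < cert.n}) with hH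
  have hle : Nat.card H ≤ 2 ^ cert.n := by
    have hok' := hok
    simp only [Schur.TwoCert.ok, Bool.and_eq_true, decide_eq_true_eq] at hok'
    rw [show Nat.card H = (H : Set Gam).ncard from Nat.card_coe_set_eq _]
    exact Schur.TwoCert.ncard_closure_le hok'.1.2 eltG
      (fun r hr => hrel r (lt_of_lt_of_le hr hok'.1.1.2)) cert.n le_rfl
  have hge : 256 ≤ Nat.card H := by
    obtain ⟨hw, hnd, hlen, hb⟩ := two_list_checks
    simp only [List.all_eq_true, decide_eq_true_eq] at hw
    rw [← hlen, ← Nat.card_fin twoWords.length]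
    refine Nat.card_le_card_of_injective (fun i => (⟨gword eltG twoWords[i.val],
      gword_mem H _ fun k hk => Subgroup.subset_closure ⟨k, hw _ (List.getElem_mem _) k hk, rfl⟩⟩ : H))
      fun i j hij => ?_
    have hpt : ∀ b ∈ twoBase, runF eltFun twoWords[i.val] b = runF eltFun twoWords[j.val] b :=
      fun b hb' => by
        rw [← gword_elt_apply _ ⟨b, hb b hb'⟩, ← gword_elt_apply _ ⟨b, hb b hb'⟩,
          show gword eltG twoWords[i.val] = gword eltG twoWords[j.val] from congrArg Subtype.val hij]
    refine Fin.ext ((List.Nodup.getElem_inj_iff hnd (hi := by simp) (hj := by simp)).1 ?_)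
    rw [List.getElem_map, List.getElem_map]
    exact List.map_congr_left hpt
  have hcard : Nat.card H = 2 ^ cert.n := by
    refine le_antisymm hle ?_
    rw [hn]
    exact hge
  refine Schur.TwoCert.not_two_dvd_card_ker hσ hok eltG hrel hcard ?_
  rw [← hH]
  have := H.card_mul_index
  rw [hcard, hn, card_Gam] at this
  norm_num at this
  omega

theorem not_three_dvd {Δ : Type} [Group Δ] [Finite Δ] (σ : Δ →* Gam)
    (hσ : Cfsg.IsStemExtension σ) : ¬ 3 ∣ Nat.card σ.ker := by
  have hrel : ∀ u w : List ℕ, ((List.range 200).all fun i => runF eltFun u i == runF eltFun w i) = true →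
      gword eltG u = gword eltG w := fun u w => elt_eq
  have key := hrel
  have hA : eltG 10 ^ 3 = 1 := by
    have := key [10, 10, 10] [] (by decide +kernel)
    simpa [gword, pow_succ, mul_assoc] using this
  have hB : eltG 11 ^ 3 = 1 := by
    have := key [11, 11, 11] [] (by decide +kernel)
    simpa [gword, pow_succ, mul_assoc] using this
  have hA' : (eltG 10)⁻¹ = eltG 10 ^ 2 := inv_eq_of_mul_eq_one_right (by rw [← pow_succ', hA])
  have hB' : (eltG 11)⁻¹ = eltG 11 ^ 2 := inv_eq_of_mul_eq_one_right (by rw [← pow_succ', hB])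
  have e : ⁅eltG 10, eltG 11⁆ = gword eltG [10, 11, 10, 10, 11, 11] := by
    rw [commutatorElement_def, hA', hB']
    simp [gword, pow_two, mul_assoc]
  refine Schur.ThreeGroups.not_three_dvd_of_invert hσ
    (Subgroup.closure {g : Gam | ∃ k ∈ [10, 11], eltG k = g}) ?_ (g := eltG 12) ?_ hA hB ?_ ?_ ?_ ?_ ?_
  · intro h3
    have hc := card_closure_list (W := threeWords) (ks := [10, 11]) (nxt := threeNext)
      (base := threeBase) (by decide +kernel)
    have := (Subgroup.closure {g : Gam | ∃ k ∈ [10, 11], eltG k = g}).card_mul_index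
    rw [hc, card_Gam, show threeWords.length = 27 by decide +kernel] at this
    omega
  · refine Subgroup.closure_mono ?_
    rintro g ⟨k, hk, rfl⟩
    simp only [List.mem_cons, List.not_mem_nil, or_false] at hk
    rcases hk with rfl | rfl
    · exact Set.mem_insert _ _
    · exact Set.mem_insert_of_mem _ rfl
  · rw [e]
    show gword eltG _ * eltG 10 = eltG 10 * gword eltG _
    have := key [10, 11, 10, 10, 11, 11, 10] [10, 10, 11, 10, 10, 11, 11] (by decide +kernel)
    simpa [gword, mul_assoc] using this
  · rw [e]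
    show gword eltG _ * eltG 11 = eltG 11 * gword eltG _
    have := key [10, 11, 10, 10, 11, 11, 11] [11, 10, 11, 10, 10, 11, 11] (by decide +kernel)
    simpa [gword, mul_assoc] using this
  · rw [e]
    intro h
    have h' : ∀ i : Fin 200, runF eltFun [10, 11, 10, 10, 11, 11] i = i := fun i => by
      rw [← gword_elt_apply, h]; rfl
    have hne : ∃ i < 200, runF eltFun [10, 11, 10, 10, 11, 11] i ≠ i := by decide +kernel
    obtain ⟨i, hi, hi'⟩ := hne
    exact hi' (h' ⟨i, hi⟩)
  · rw [mul_inv_eq_iff_eq_mul, hA']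
    have := key [12, 10] [10, 10, 12] (by decide +kernel)
    simpa [gword, pow_two, mul_assoc] using this
  · rw [mul_inv_eq_iff_eq_mul, hB']
    have := key [12, 11] [11, 11, 12] (by decide +kernel)
    simpa [gword, pow_two, mul_assoc] using this

theorem not_five_dvd {Δ : Type} [Group Δ] [Finite Δ] (σ : Δ →* Gam)
    (hσ : Cfsg.IsStemExtension σ) : ¬ 5 ∣ Nat.card σ.ker := by
  haveI : Fact (Nat.Prime 5) := ⟨Nat.prime_five⟩
  have key : ∀ u w : List ℕ, ((List.range 200).all fun i => runF eltFun u i == runF eltFun w i) = true →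
      gword eltG u = gword eltG w := fun u w => elt_eq
  refine Schur.OddSwap.not_dvd_of_swap hσ (by norm_num)
    (Subgroup.closure {g : Gam | ∃ k ∈ [13, 14], eltG k = g}) ?_ (a := eltG 13) (b := eltG 14) (g := eltG 15) ?_ ?_ ?_ ?_ ?_
  · intro h5
    have hc := card_closure_list (W := fiveWords) (ks := [13, 14]) (nxt := fiveNext)
      (base := fiveBase) (by decide +kernel)
    have := (Subgroup.closure {g : Gam | ∃ k ∈ [13, 14], eltG k = g}).card_mul_index
    rw [hc, card_Gam, show fiveWords.length = 25 by decide +kernel] at this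
    omega
  · refine Subgroup.closure_mono ?_
    rintro g ⟨k, hk, rfl⟩
    simp only [List.mem_cons, List.not_mem_nil, or_false] at hk
    rcases hk with rfl | rfl
    · exact Set.mem_insert _ _
    · exact Set.mem_insert_of_mem _ rfl
  · have := key [13, 13, 13, 13, 13] [] (by decide +kernel)
    simpa [gword, pow_succ, mul_assoc] using this
  · show eltG 13 * eltG 14 = eltG 14 * eltG 13
    simpa [gword] using key [13, 14] [14, 13] (by decide +kernel)
  · rw [mul_inv_eq_iff_eq_mul]
    simpa [gword] using key [15, 13] [14, 15] (by decide +kernel)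
  · rw [mul_inv_eq_iff_eq_mul]
    simpa [gword] using key [15, 14] [13, 15] (by decide +kernel)

theorem cover_trivial : Cfsg.HasCyclicSchurMultiplier Gam 1 := by
  refine Schur.hasCyclicSchurMultiplier_one fun Δ _ _ σ hσ p hp => ?_
  haveI := Fact.mk hp
  by_cases h2 : p = 2
  · subst h2; exact not_two_dvd σ hσ
  by_cases h3 : p = 3
  · subst h3; exact not_three_dvd σ hσ
  by_cases h5 : p = 5
  · subst h5; exact not_five_dvd σ hσ
  by_cases h7 : p = 7
  · subst h7
    obtain ⟨x, hx⟩ := exists_prime_orderOf_dvd_card' (G := Gam) 7 (by rw [card_Gam]; norm_num)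
    refine Schur.not_dvd_card_ker_of_isCyclic hσ (Subgroup.zpowers x) fun hi => ?_
    have := (Subgroup.zpowers x).card_mul_index
    rw [Nat.card_zpowers, hx, card_Gam] at this
    omega
  refine Schur.not_dvd_card_ker_of_isCyclic hσ ⊥ ?_
  rw [Subgroup.index_bot, card_Gam, show (1209600 : ℕ) = 2 ^ 8 * 3 ^ 3 * 5 ^ 2 * 7 by norm_num]
  intro hd
  have eq : ∀ q k : ℕ, q.Prime → p ∣ q ^ k → p = q := fun q k hq hd' =>
    (Nat.prime_dvd_prime_iff_eq hp hq).1 (hp.dvd_of_dvd_pow hd')
  rcases hp.dvd_mul.1 hd with hd | hd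
  · rcases hp.dvd_mul.1 hd with hd | hd
    · rcases hp.dvd_mul.1 hd with hd | hd
      · exact h2 (eq 2 8 Nat.prime_two hd)
      · exact h3 (eq 3 3 Nat.prime_three hd)
    · exact h5 (eq 5 2 Nat.prime_five hd)
  · exact h7 ((Nat.prime_dvd_prime_iff_eq hp (by norm_num)).1 hd)

theorem multiplier_J2 : Cfsg.HasCyclicSchurMultiplier Cfsg.Spor.J2 2 := by
  obtain ⟨σ, hσ, hk⟩ := exists_stem
  haveI : Finite Cfsg.Spor.J2 := Finite.of_surjective σ hσ.1
  exact SchurMult.hasSchurMultiplier_of_trivial_cover hσ cover_trivial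
    (mulEquivOfPrimeCardEq (p := 2) hk (by simp))

end CfsgLib.SporJ2.Cover

end
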